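import Cfsg.Prelude.Def_Classical
import Cfsg.Prelude.Def_CaseTheorems

/-! Definitions for the recognition of the Lyons group by its Sylow 2-subgroup. -/

set_option autoImplicit false

namespace Cfsg.Agent.LYS

/-- three commuting involutions generating a group of order eight all of whose involutions are conjugate -/
structure E8 {N : Type*} [Group N] (x y w : N) : Prop where
  xx : x * x = 1
  x1 : x ≠ 1
  xy : x * y = y * x
  xw : x * w = w * x
  yw : y * w = w * y
  cy : IsConj x y
  cw : IsConj x w
  cxy : IsConj x (x * y)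
  cxw : IsConj x (x * w)
  cyw : IsConj x (y * w)
  cxyw : IsConj x (x * y * w)

theorem E8.map {N M : Type*} [Group N] [Group M] (e : N ≃* M) {x y w : N} (h : E8 x y w) :
    E8 (e x) (e y) (e w) := by
  have c : ∀ {a}, IsConj x a → IsConj (e x) (e a) := fun k => e.toMonoidHom.map_isConj k
  refine ⟨?_, fun k => h.x1 (e.injective (k.trans e.map_one.symm)), ?_, ?_, ?_, c h.cy, c h.cw, ?_, ?_, ?_, ?_⟩ <;>
    simp only [← map_mul]
  exacts [by rw [h.xx, map_one], by rw [h.xy], by rw [h.xw], by rw [h.yw], c h.cxy, c h.cxw, c h.cyw,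
    c h.cxyw]

/-- `K` is an extension of the central involution `z ∈ K'` by `A` -/
structure Dbl {K A : Type*} [Group K] [Group A] (z : K) (f : K →* A) : Prop where
  z1 : z ≠ 1
  surj : Function.Surjective f
  ker : ∀ x, f x = 1 ↔ x = 1 ∨ x = z
  mem : z ∈ commutator K

end Cfsg.Agent.LYS
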