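import Cfsg.Agent.LYS.Defs
import Cfsg.Agent.H10.Isotropic

/-! No pure elementary abelian group of order eight in `L₄(q)`, `q ≡ 3 (4)`, or `U₄(q)`, `q ≡ 1 (4)`. -/

set_option autoImplicit false

namespace Cfsg.Agent.LYS

open Matrix

namespace LU

variable {F : Type*} [Field F]

/-- `A = ± 1` -/
def pm (A : Matrix (Fin 4) (Fin 4) F) : Prop := A = 1 ∨ A = -1

/-- a sign -/
def sg (F : Type*) [Field F] (b : Bool) : F := if b then -1 else 1

theorem sg_xor (a b : Bool) : sg F (xor a b) = sg F a * sg F b := by cases a <;> cases b <;> simp [sg]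

theorem step (h2 : (2 : F) ≠ 0) {A : Matrix (Fin 4) (Fin 4) F} (hA : A * A = 1)
    {U : Set (Fin 4 → F)} {T : Submodule F (Fin 4 → F)}
    (hU : ∀ v ∈ U, ∀ c : F, v + c • A *ᵥ v ∈ U)
    (h : ∀ c, ∀ v ∈ U, A *ᵥ v = sg F c • v → v ∈ T) : ∀ v ∈ U, v ∈ T := fun v hv => by
  have k : ∀ c, v + sg F c • A *ᵥ v ∈ T := fun c => h c _ (hU v hv _) (by
    rw [mulVec_add, mulVec_smul, mulVec_mulVec, hA, one_mulVec, smul_add, smul_smul, ← sg_xor, add_comm]
    simp [sg])
  have := T.smul_mem (2 : F)⁻¹ (T.add_mem (k true) (k false))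
  rwa [show v + sg F true • A *ᵥ v + (v + sg F false • A *ᵥ v) = (2 : F) • v by
    simp only [sg, if_true, Bool.false_eq_true, if_false]; module, smul_smul, inv_mul_cancel₀ h2,
    one_smul] at this

theorem fin3 : ∀ a b c : Fin 4 → Bool, (xor (xor (xor (a 0) (a 1)) (a 2)) (a 3) ||
    xor (xor (xor (b 0) (b 1)) (b 2)) (b 3) || xor (xor (xor (c 0) (c 1)) (c 2)) (c 3)) = false →
    ∃ s, (∀ k, a k = s) ∨ (∀ k, b k = s) ∨ (∀ k, c k = s) ∨ (∀ k, xor (a k) (b k) = s) ∨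
      (∀ k, xor (a k) (c k) = s) ∨ (∀ k, xor (b k) (c k) = s) ∨ ∀ k, xor (xor (a k) (b k)) (c k) = s := by
  decide +kernel

theorem diag3 (h2 : (2 : F) ≠ 0) {X Y W : Matrix (Fin 4) (Fin 4) F} (hX : X * X = 1) (hY : Y * Y = 1)
    (hW : W * W = 1) (xy : Y * X = X * Y) (xw : W * X = X * W) (yw : W * Y = Y * W) (dX : X.det = 1)
    (dY : Y.det = 1) (dW : W.det = 1) :
    pm X ∨ pm Y ∨ pm W ∨ pm (X * Y) ∨ pm (X * W) ∨ pm (Y * W) ∨ pm (X * Y * W) := by
  have inv : ∀ {A B : Matrix (Fin 4) (Fin 4) F} {a : F} {v}, B * A = A * B → A *ᵥ v = a • v →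
      ∀ c : F, A *ᵥ (v + c • B *ᵥ v) = a • (v + c • B *ᵥ v) := fun e hv c => by
    rw [mulVec_add, mulVec_smul, mulVec_mulVec, ← e, ← mulVec_mulVec, hv, mulVec_smul, smul_add, smul_comm]
  have hs : ⊤ ≤ Submodule.span F {v : Fin 4 → F | ∃ a b c, X *ᵥ v = sg F a • v ∧ Y *ᵥ v = sg F b • v ∧
      W *ᵥ v = sg F c • v} := fun v _ =>
    step h2 hX (U := Set.univ) (fun _ _ _ => trivial) (fun a v _ ha =>
      step h2 hY (U := {v | X *ᵥ v = sg F a • v}) (fun _ h => inv xy h) (fun b v ha hb =>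
        step h2 hW (U := {v | X *ᵥ v = sg F a • v ∧ Y *ᵥ v = sg F b • v})
          (fun _ h c => And.intro (inv xw h.1 c) (inv yw h.2 c))
          (fun c v h hc => Submodule.subset_span (by exact ⟨a, b, c, h.1, h.2, hc⟩)) v (And.intro ha hb)) v ha) v trivial
  let b0 := Module.Basis.ofSpan hs
  let b := b0.reindex (b0.indexEquiv (Pi.basisFun F (Fin 4)))
  have hb : ∀ k, ∃ s t u, X *ᵥ b k = sg F s • b k ∧ Y *ᵥ b k = sg F t • b k ∧ W *ᵥ b k = sg F u • b k :=
    fun k => by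
      rw [Module.Basis.reindex_apply]
      exact Module.Basis.ofSpan_subset hs ⟨_, rfl⟩
  choose s t u h1 h2' h3 using hb
  have hu : IsUnit (Matrix.of fun i j => b j i) := linearIndependent_cols_iff_isUnit.1 b.linearIndependent
  have dg : ∀ (A : Matrix (Fin 4) (Fin 4) F) (d : Fin 4 → F), (∀ k, A *ᵥ b k = d k • b k) →
      A * (Matrix.of fun i j => b j i) = (Matrix.of fun i j => b j i) * diagonal d := fun A d h => by
    ext k l
    rw [mul_diagonal, of_apply, mul_comm]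
    exact congrFun (h l) k
  have par : ∀ (A : Matrix (Fin 4) (Fin 4) F) (d : Fin 4 → Bool), (∀ k, A *ᵥ b k = sg F (d k) • b k) →
      A.det = 1 → xor (xor (xor (d 0) (d 1)) (d 2)) (d 3) = false := fun A d h e => by
    have := congrArg det (dg A _ h)
    rw [det_mul, det_mul, e, det_diagonal, Fin.prod_univ_four, ← sg_xor, ← sg_xor, ← sg_xor, one_mul,
      left_eq_mul₀ ((isUnit_iff_isUnit_det _).1 hu).ne_zero] at this
    by_contra c
    rw [Bool.not_eq_false] at c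
    rw [c] at this
    exact h2 (by simp only [sg, if_true] at this; linear_combination -this)
  have fin : ∀ (A : Matrix (Fin 4) (Fin 4) F) (d : Fin 4 → Bool), (∀ k, A *ᵥ b k = sg F (d k) • b k) →
      ∀ c, (∀ k, d k = c) → pm A := fun A d h c e => by
    have := dg A _ h
    simp only [e] at this
    rw [← smul_one_eq_diagonal, Matrix.mul_smul, mul_one, ← one_mul (Matrix.of _), ← Matrix.smul_mul,
      ← mul_assoc, mul_one, hu.mul_left_inj] at this
    cases c
    · exact Or.inl (by simpa [sg] using this)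
    · exact Or.inr (by simpa [sg] using this)
  have pr : ∀ {A B : Matrix (Fin 4) (Fin 4) F} {d e : Fin 4 → Bool}, (∀ k, A *ᵥ b k = sg F (d k) • b k) →
      (∀ k, B *ᵥ b k = sg F (e k) • b k) → ∀ k, (A * B) *ᵥ b k = sg F (xor (d k) (e k)) • b k :=
    fun h h' k => by rw [← mulVec_mulVec, h', mulVec_smul, h, smul_smul, sg_xor, mul_comm]
  obtain ⟨c, e⟩ := fin3 s t u (by rw [par X s h1 dX, par Y t h2' dY, par W u h3 dW]; rfl)
  exact e.imp (fin _ _ h1 c) (.imp (fin _ _ h2' c) (.imp (fin _ _ h3 c) (.imp (fin _ _ (pr h1 h2') c)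
    (.imp (fin _ _ (pr h1 h3) c) (.imp (fin _ _ (pr h2' h3) c) (fin _ _ (pr (pr h1 h2') h3) c))))))

theorem core (h2 : (2 : F) ≠ 0) {Γ : Type*} [Group Γ] (ρ : Γ →* Matrix (Fin 4) (Fin 4) F)
    (hd : ∀ g, (ρ g).det = 1) (hc : ∀ c, c ∈ Subgroup.center Γ ↔ pm (ρ c))
    (x y w : Γ ⧸ Subgroup.center Γ) : ¬ E8 x y w := fun h => by
  obtain ⟨X, rfl⟩ := QuotientGroup.mk_surjective x
  obtain ⟨Y, rfl⟩ := QuotientGroup.mk_surjective y
  obtain ⟨W, rfl⟩ := QuotientGroup.mk_surjective w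
  have hX : X * X ∈ Subgroup.center Γ := (QuotientGroup.eq_one_iff _).1 h.xx
  have key : ∀ P : Γ, IsConj (X : Γ ⧸ Subgroup.center Γ) P → ρ P * ρ P = ρ X * ρ X ∧ ¬ pm (ρ P) :=
    fun P hP => by
      refine ⟨?_, fun c => h.x1 (isConj_one_left.1 ((QuotientGroup.eq_one_iff _).2 ((hc P).2 c) ▸ hP))⟩
      obtain ⟨g, e⟩ := isConj_iff.1 hP
      obtain ⟨g, rfl⟩ := QuotientGroup.mk_surjective g
      have hz := QuotientGroup.eq.1 (show ((g * X * g⁻¹ : Γ) : Γ ⧸ Subgroup.center Γ) = P from e)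
      obtain ⟨z, rfl⟩ : ∃ z, P = g * X * g⁻¹ * z := ⟨(g * X * g⁻¹)⁻¹ * P, by group⟩
      rw [inv_mul_cancel_left] at hz
      have e1 : ρ z * ρ z = 1 := by rcases (hc z).1 hz with e | e <;> simp [e]
      have e2 : g * X * g⁻¹ * z * (g * X * g⁻¹ * z) = X * X * (z * z) := by
        rw [mul_assoc _ z, ← mul_assoc z, ← Subgroup.mem_center_iff.1 hz (g * X * g⁻¹)]
        calc _ = g * (X * X) * g⁻¹ * (z * z) := by group
          _ = _ := by rw [Subgroup.mem_center_iff.1 hX g, mul_inv_cancel_right]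
      rw [← map_mul, e2, map_mul, map_mul, map_mul, e1, mul_one]
  have k0 := key X (IsConj.refl _)
  have k1 := key Y h.cy
  have k2 := key W h.cw
  have k3 := key (X * Y) h.cxy
  have k4 := key (X * W) h.cxw
  have k5 := key (Y * W) h.cyw
  have k6 := key (X * Y * W) h.cxyw
  simp only [map_mul] at k3 k4 k5 k6
  have sw : ∀ {A B E : Matrix (Fin 4) (Fin 4) F}, (E = 1 ∨ E = -1) → A * A = E → B * B = E →
      A * B * (A * B) = E → B * A = E * (A * B) := fun {A B E} hE a b c => by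
    have : A * (A * B * (A * B)) * B = A * A * (B * A) * (B * B) := by simp only [mul_assoc]
    rw [c, a, b] at this
    rcases hE with rfl | rfl <;> simpa using this.symm
  have hE := (hc _).1 hX
  rw [map_mul] at hE
  have s1 := sw hE rfl k1.1 k3.1
  have s2 := sw hE rfl k2.1 k4.1
  have s3 := sw hE k1.1 k2.1 k5.1
  rcases hE with e | e
  · simp only [e, one_mul] at s1 s2 s3 k1 k2
    rcases diag3 h2 e k1.1 k2.1 s1 s2 s3 (hd _) (hd _) (hd _) with c | c | c | c | c | c | c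
    exacts [k0.2 c, k1.2 c, k2.2 c, k3.2 c, k4.2 c, k5.2 c, k6.2 c]
  · rw [e, neg_mul, one_mul] at s2 s3
    have : ρ X * ρ Y * ρ W * (ρ X * ρ Y * ρ W) = ρ X * ρ Y * (ρ X * ρ Y) * (ρ W * ρ W) :=
      calc _ = ρ X * ρ Y * (ρ W * ρ X) * ρ Y * ρ W := by simp only [mul_assoc]
        _ = -(ρ X * ρ Y * ρ X * (ρ W * ρ Y) * ρ W) := by rw [s2]; simp only [mul_assoc, mul_neg, neg_mul]
        _ = _ := by rw [s3]; simp only [mul_assoc, mul_neg, neg_mul, neg_neg]
    rw [k6.1, k3.1, k2.1, e] at this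
    have := congrFun (congrFun this 0) 0
    simp only [mul_neg, mul_one, neg_neg, Matrix.neg_apply, one_apply_eq] at this
    exact h2 (by linear_combination -this)

theorem pm_smul {c : F} (h : c * c = 1) : pm (c • (1 : Matrix (Fin 4) (Fin 4) F)) := by
  rcases mul_self_eq_one_iff.1 h with rfl | rfl
  exacts [Or.inl (one_smul _ _), Or.inr (by simp)]

theorem two_ne [Fintype F] (h : Fintype.card F % 2 = 1) : (2 : F) ≠ 0 :=
  Ring.two_ne_zero fun e => by have := FiniteField.even_card_of_char_two e; omega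

end LU

open LU

theorem not_e8_psl {F : Type*} [Field F] [Fintype F] (hF : Fintype.card F % 4 = 3)
    (x y w : Matrix.ProjectiveSpecialLinearGroup (Fin 4) F) : ¬ E8 x y w := by
  refine core (F := F) (two_ne (by omega)) Matrix.SpecialLinearGroup.coeMonoidHom
    (fun g => g.2) (fun c => ?_) x y w
  rw [Matrix.SpecialLinearGroup.mem_center_iff]
  change _ ↔ pm (c : Matrix (Fin 4) (Fin 4) F)
  constructor
  · rintro ⟨r, h1, h2⟩
    rw [← h2, scalar_apply, ← smul_one_eq_diagonal]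
    refine pm_smul ((mul_self_eq_one_iff.1 (by rw [← h1]; simp; ring)).resolve_right fun e => ?_)
    exact FiniteField.isSquare_neg_one_iff.1 ⟨r, e.symm⟩ hF
  · rintro (e | e)
    · exact ⟨1, one_pow _, by rw [e, map_one]⟩
    · exact ⟨-1, by simp; norm_num, by rw [e, map_neg, map_one]⟩

theorem not_e8_psu {F : Type*} [Field F] [Fintype F] {q : ℕ} (hF : Fintype.card F = q ^ 2) (hq : q % 4 = 1)
    (x y w : Cfsg.PSU 4 F q) : ¬ E8 x y w := by
  haveI := Fact.mk hF
  refine core (F := F) (two_ne (by rw [hF, Nat.pow_mod, show q % 2 = 1 by omega]))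
    ⟨⟨H10.sm, H10.sm_one⟩, H10.sm_mul⟩ H10.sm_det (fun c => ?_) x y w
  rw [H10.mem_center_SU_iff (by norm_num)]
  change _ ↔ pm (H10.sm c)
  constructor
  · rintro ⟨r, h⟩
    have e1 : r * r ^ q = 1 := (H10.isIsom_smul_one_iff (by omega)).1 (h ▸ H10.sm_isIsom c)
    have e2 : r ^ 4 = 1 := by simpa [h] using H10.sm_det c
    rw [← Nat.div_add_mod q 4, pow_add, pow_mul, e2, hq, one_pow, one_mul, pow_one] at e1
    exact h ▸ pm_smul e1
  · rintro (e | e)
    exacts [⟨1, by rw [e, one_smul]⟩, ⟨-1, by simp [e]⟩]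

end Cfsg.Agent.LYS
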